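import Cfsg.Agent.H967.Sph.State
import Cfsg.Agent.Tits.RootComb
import Cfsg.Agent.H439.CC.Defs

/-!
# Dominant states and the trace formula for parabolic subgroups (helper348, for S4879)
-/

set_option autoImplicit false
set_option linter.unusedSectionVars false

namespace Cfsg.Agent.H348.LB

open Cfsg CoxeterSystem Cfsg.Agent.H967.Sph Cfsg.Agent.ChevalleyStructure.CoxeterGeom Cfsg.Agent.Tits.Roots
  Cfsg.Agent.Tits.Core Cfsg.Agent.Tits.Exchange

/-- `F` is the spherical function of the character `φ` for the subgroup `P`. -/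
structure Sph {G : Type*} [Group G] [Fintype G] (P : Subgroup G) [Fintype P] (φ F : G → ℂ) : Prop where
  left : ∀ p ∈ P, ∀ g, F (p * g) = F g
  right : ∀ p ∈ P, ∀ g, F (g * p) = F g
  one : F 1 = 1
  mul : ∀ g h, ∑ p : P, F (h * p * g) = Nat.card P * (F h * F g)
  nrm : φ 1 * ∑ g, F g * F g⁻¹ = Nat.card G
  conj : ∀ g, φ 1 * ∑ y, F (y * g * y⁻¹) = Nat.card G * φ g

section Dom

variable {I W : Type*} [Fintype I] [DecidableEq I] [Group W] {M : CoxeterMatrix I}
  (cs : CoxeterSystem M W) {A : I → I → ℤ} (h : IsCartan M A) {j : I} {N m : ℕ} (t : Tab A j N m)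

theorem vec_mul (y u : W) (i : I) :
    t.vec (t.sw cs h (y * u)) i = ∑ k, rep cs h u (sr i) k * t.vec (t.sw cs h y) k := by
  rw [Tab.vec_sw, Tab.vec_sw]
  show rep cs h (y * u) (sr i) j = _
  rw [rep_mul_apply]
  conv_lhs => rw [eq_sum_sr (rep cs h u (sr i))]
  rw [map_sum, Finset.sum_apply]
  refine Finset.sum_congr rfl fun k _ => ?_
  rw [map_smul, Pi.smul_apply, smul_eq_mul]
  rfl

/-- the last letter of a nontrivial element of `W_J` -/
theorem exists_desc {J : Set I} {u : W} (hu : u ∈ WJ cs J) (h1 : u ≠ 1) :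
    ∃ i ∈ J, cs.length (u * cs.simple i) < cs.length u := by
  obtain ⟨ω, hω, hr, rfl⟩ := exists_reduced_of_mem_WJ cs hu
  rcases List.eq_nil_or_concat ω with rfl | ⟨ω', i, rfl⟩
  · exact absurd (by simp) h1
  · rw [List.concat_eq_append] at *
    refine ⟨i, hω i (by simp), ?_⟩
    rw [wordProd_append, wordProd_singleton, mul_assoc, simple_mul_simple_self, mul_one]
    have h2 : cs.length (cs.wordProd (ω' ++ [i])) = (ω' ++ [i]).length := hr
    rw [wordProd_append, wordProd_singleton] at h2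
    rw [h2]
    have h3 := cs.length_wordProd_le ω'
    rw [List.length_append, List.length_singleton]
    omega

theorem vec_le_zero {J : Set I} {y u : W} (hu : u ∈ WJ cs J) (hd : ∀ i ∈ J, 0 ≤ t.vec (t.sw cs h y) i) {i : I}
    (hi : i ∈ J) (hl : cs.length (u * cs.simple i) < cs.length u) : t.vec (t.sw cs h (y * u)) i ≤ 0 := by
  rw [vec_mul]
  refine Finset.sum_nonpos fun k _ => ?_
  by_cases hk : k ∈ J
  · exact mul_nonpos_of_nonpos_of_nonneg (nonpos_of_lt cs h u i hl k) (hd k hk)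
  · rw [Tits.RootComb.rep_apply_of_mem cs h hu _ hk, sr_ne (fun hh => hk (by subst hh; exact hi)), zero_mul]

/-- the dominant state of an orbit of `W_J` is unique -/
theorem sw_eq_of_dom {J : Set I} {y : W} (hd : ∀ i ∈ J, 0 ≤ t.vec (t.sw cs h y) i) : ∀ {u : W}, u ∈ WJ cs J →
    (∀ i ∈ J, 0 ≤ t.vec (t.sw cs h (y * u)) i) → t.sw cs h (y * u) = t.sw cs h y := by
  intro u
  induction hn : cs.length u using Nat.strong_induction_on generalizing u with
  | _ l ih =>
  intro hu hdu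
  by_cases hu1 : u = 1
  · rw [hu1, mul_one]
  obtain ⟨i, hi, hl⟩ := exists_desc cs hu hu1
  have h1 : t.vec (t.sw cs h (y * u)) i = 0 := le_antisymm (vec_le_zero cs h t hu hd hi hl) (hdu i hi)
  have h2 : t.sw cs h (y * (u * cs.simple i)) = t.sw cs h (y * u) := by
    rw [← mul_assoc, Tab.sw_mul_simple, Tab.st_eq_of_zero cs h t h1]
  rw [← h2]
  exact ih _ (by omega) rfl (mul_mem hu (simple_mem_WJ cs hi)) (by rw [h2]; exact hdu)

/-- the stabilizer in `W_J` of a strictly dominant state is trivial -/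
theorem eq_one_of_dom {J : Set I} {y : W} (hd : ∀ i ∈ J, 0 < t.vec (t.sw cs h y) i) {u : W} (hu : u ∈ WJ cs J)
    (he : t.sw cs h (y * u) = t.sw cs h y) : u = 1 := by
  by_contra hu1
  obtain ⟨i, hi, hl⟩ := exists_desc cs hu hu1
  have h1 := vec_le_zero cs h t hu (fun i hi => (hd i hi).le) hi hl
  rw [he] at h1
  exact absurd (hd i hi) (not_lt.2 h1)

/-- the sign `η ^ ℓ(u)` -/
noncomputable def sg (η : ℤ) (u : W) : ℤ := η ^ cs.length u

theorem sg_mul {η : ℤ} (hη : η = 1 ∨ η = -1) (u v : W) : sg cs η (u * v) = sg cs η u * sg cs η v := by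
  unfold sg
  rcases hη with rfl | rfl
  · simp
  · rw [← pow_add]
    have h1 := cs.length_mul_mod_two u v
    rw [neg_one_pow_eq_pow_mod_two, h1, ← neg_one_pow_eq_pow_mod_two]

theorem sg_one (η : ℤ) : sg cs η (1 : W) = 1 := by simp [sg]

theorem sg_simple (η : ℤ) (i : I) : sg cs η (cs.simple i) = η := by simp [sg]

theorem sg_wordProd {η : ℤ} (hη : η = 1 ∨ η = -1) (ω : List I) : sg cs η (cs.wordProd ω) = η ^ ω.length := by
  induction ω with
  | nil => rw [wordProd_nil, sg_one, List.length_nil, pow_zero]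
  | cons i ω ih => rw [wordProd_cons, sg_mul cs hη, sg_simple, ih, List.length_cons, pow_succ, mul_comm]

theorem sg_sq {η : ℤ} (hη : η = 1 ∨ η = -1) (u : W) : sg cs η u * sg cs η u = 1 := by
  unfold sg
  rw [← mul_pow]
  rcases hη with rfl | rfl <;> simp

theorem sg_inv {η : ℤ} (hη : η = 1 ∨ η = -1) (u : W) : sg cs η u⁻¹ = sg cs η u := by
  unfold sg
  rw [cs.length_inv]

open Classical in
/-- `0` for a dominant state with a nontrivial stabilizer in `W_J`, `1` otherwise (`1` always if `η = 1`) -/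
noncomputable def rho (J : Set I) (η : ℤ) (d : Fin N) : ℤ := if η = 1 ∨ ∀ i ∈ J, 0 < t.vec d i then 1 else 0

/-- The orbit data of `W_J` on the states: `r s` is the dominant state of the orbit, `ε s` the sign. -/
structure Orb (J : Set I) (η : ℤ) (r : Fin N → Fin N) (ε : Fin N → ℤ) : Prop where
  mem : ∀ s, ∃ ω : List I, (∀ i ∈ ω, i ∈ J) ∧ ω.foldl (fun b i => t.st i b) (r s) = s ∧
    ε s = η ^ ω.length * rho t J η (r s)
  dom : ∀ s, ∀ i ∈ J, 0 ≤ t.vec (r s) i

variable {cs h t} {J : Set I} {η : ℤ} {r : Fin N → Fin N} {ε : Fin N → ℤ}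

/-- lifting of the representative -/
theorem Orb.lift (O : Orb t J η r ε) (hη : η = 1 ∨ η = -1) (y : W) :
    ∃ v ∈ WJ cs J, t.sw cs h (y * v) = r (t.sw cs h y) ∧
      ε (t.sw cs h y) = sg cs η v * rho t J η (r (t.sw cs h y)) := by
  obtain ⟨ω, hω, h1, h2⟩ := O.mem (t.sw cs h y)
  refine ⟨(cs.wordProd ω)⁻¹, inv_mem (wordProd_mem_WJ cs hω), ?_, ?_⟩
  · have h3 : t.sw cs h (y * (cs.wordProd ω)⁻¹) = ω.reverse.foldl (fun b i => t.st i b) (t.sw cs h y) := by
      rw [← wordProd_reverse, Tab.sw_wordProd]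
    rw [h3]
    have key : ∀ (ω : List I) (s : Fin N), ω.reverse.foldl (fun b i => t.st i b) (ω.foldl (fun b i => t.st i b) s) = s := by
      intro ω
      induction ω with
      | nil => intro s; rfl
      | cons i ω ih =>
        intro s
        rw [List.foldl_cons, List.reverse_cons, List.foldl_append, ih, List.foldl_cons, List.foldl_nil,
          Tab.st_st cs h t]
    conv_lhs => rw [← h1]
    exact key _ _
  · rw [sg_inv cs hη, sg_wordProd cs hη]
    exact h2

theorem Orb.r_eq (O : Orb t J η r ε) (hη : η = 1 ∨ η = -1) (y : W) {u : W} (hu : u ∈ WJ cs J) :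
    r (t.sw cs h (y * u)) = r (t.sw cs h y) := by
  obtain ⟨v, hv, h1, -⟩ := O.lift (cs := cs) (h := h) hη y
  obtain ⟨v', hv', h1', -⟩ := O.lift (cs := cs) (h := h) hη (y * u)
  rw [← h1, ← h1']
  have h2 : y * u * v' = (y * v) * (v⁻¹ * u * v') := by group
  rw [h2]
  refine sw_eq_of_dom cs h t (J := J) ?_ (mul_mem (mul_mem (inv_mem hv) hu) hv') ?_
  · rw [h1]
    exact O.dom _
  · rw [← h2, h1']
    exact O.dom _

theorem Orb.eps_mul (O : Orb t J η r ε) (hη : η = 1 ∨ η = -1) (y : W) {u : W} (hu : u ∈ WJ cs J) :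
    ε (t.sw cs h (y * u)) = sg cs η u * ε (t.sw cs h y) := by
  rcases hη with rfl | rfl
  · obtain ⟨ω, -, -, h1⟩ := O.mem (t.sw cs h (y * u))
    obtain ⟨ω', -, -, h2⟩ := O.mem (t.sw cs h y)
    rw [h1, h2]
    simp [sg, rho]
  have hη : (-1 : ℤ) = 1 ∨ (-1 : ℤ) = -1 := Or.inr rfl
  obtain ⟨v, hv, h1, h2⟩ := O.lift (cs := cs) (h := h) hη y
  obtain ⟨v', hv', h1', h2'⟩ := O.lift (cs := cs) (h := h) hη (y * u)
  have hr := O.r_eq (cs := cs) (h := h) hη y hu
  rw [hr] at h1' h2'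
  by_cases h0 : ∃ i ∈ J, t.vec (r (t.sw cs h y)) i = 0
  · have h3 : rho t J (-1) (r (t.sw cs h y)) = 0 := by
      rw [rho, if_neg]
      rintro (h4 | h4)
      · norm_num at h4
      · obtain ⟨i, hi, h5⟩ := h0
        exact absurd (h4 i hi) (by rw [h5]; exact lt_irrefl _)
    rw [h2, h2', h3, mul_zero, mul_zero, mul_zero]
  · have hpos : ∀ i ∈ J, 0 < t.vec (t.sw cs h (y * v)) i := by
      intro i hi
      rw [h1]
      refine lt_of_le_of_ne (O.dom _ i hi) fun h4 => h0 ⟨i, hi, h4.symm⟩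
    have h4 : v⁻¹ * u * v' = 1 := by
      refine eq_one_of_dom cs h t hpos (mul_mem (mul_mem (inv_mem hv) hu) hv') ?_
      have h5 : y * v * (v⁻¹ * u * v') = y * u * v' := by group
      rw [h5, h1', h1]
    have h5 : v = u * v' := by
      have h6 : v * (v⁻¹ * u * v') = v := by rw [h4, mul_one]
      rw [← h6]
      group
    rw [h2, h2', h5, sg_mul cs hη, ← mul_assoc, ← mul_assoc, sg_sq cs hη, one_mul]

end Dom

end Cfsg.Agent.H348.LB
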