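import Cfsg.Agent.H348.LB.Dom

/-!
# The trace formula (helper348, for S4879)
-/

set_option autoImplicit false
set_option linter.unusedSectionVars false

namespace Cfsg.Agent.H348.LB

open Cfsg CoxeterSystem Cfsg.Agent.H967.Sph Cfsg.Agent.ChevalleyStructure.CoxeterGeom Cfsg.Agent.Tits.Roots
  Cfsg.Agent.Tits.Core Cfsg.Agent.Tits.Exchange

section Tr

variable {I W : Type*} [Fintype I] [DecidableEq I] [Group W] [Fintype W] {M : CoxeterMatrix I}
  {cs : CoxeterSystem M W} {A : I → I → ℤ} {h : IsCartan M A} {j : I} {N m : ℕ} {t : Tab A j N m}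

/-- fibres of the state map -/
theorem sum_sw [Fintype (WJ cs {i | i ≠ j})] (ψ : Fin N → ℂ) :
    ∑ y : W, ψ (t.sw cs h y) = Nat.card (WJ cs {i | i ≠ j}) * ∑ s, ψ s := by
  classical
  rw [← Finset.sum_fiberwise Finset.univ (fun y : W => t.sw cs h y), Finset.mul_sum]
  refine Finset.sum_congr rfl fun s _ => ?_
  obtain ⟨w, hw⟩ := t.exists_sw cs h s
  have h1 : ∀ y ∈ Finset.univ.filter (fun y : W => t.sw cs h y = s), ψ (t.sw cs h y) = ψ s := fun y hy => by
    rw [(Finset.mem_filter.1 hy).2]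
  rw [Finset.sum_congr rfl h1, Finset.sum_const, nsmul_eq_mul]
  congr 1
  rw [Nat.cast_inj, Nat.card_eq_fintype_card]
  have h2 : Finset.univ.filter (fun y : W => t.sw cs h y = s) =
      Finset.univ.image (fun p : WJ cs {i | i ≠ j} => (p : W) * w) := by
    ext y
    rw [Finset.mem_filter, Finset.mem_image]
    constructor
    · rintro ⟨-, h3⟩
      exact ⟨⟨y * w⁻¹, t.mem_WJ_of_sw cs h (by rw [hw, h3])⟩, Finset.mem_univ _, by
        show y * w⁻¹ * w = y
        group⟩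
    · rintro ⟨p, -, rfl⟩
      exact ⟨Finset.mem_univ _, by rw [Tab.sw_mul_left cs h t p.2, hw]⟩
  rw [h2, Finset.card_image_of_injective _ (fun a b hab => Subtype.ext (mul_right_cancel hab)), Finset.card_univ]

theorem card_eq [Fintype (WJ cs {i | i ≠ j})] (h : IsCartan M A) (t : Tab A j N m) :
    (Nat.card W : ℂ) = Nat.card (WJ cs {i | i ≠ j}) * N := by
  have h1 := sum_sw (cs := cs) (h := h) (t := t) (fun _ => 1)
  rw [Finset.sum_const, Finset.sum_const, Finset.card_univ, Finset.card_univ, Fintype.card_fin] at h1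
  rw [Nat.card_eq_fintype_card (α := W)]
  simpa using h1

variable [Fintype (WJ cs {i | i ≠ j})] {φ F : W → ℂ} (hF : Sph (WJ cs {i | i ≠ j}) φ F)

include hF in
theorem exists_f (h : IsCartan M A) (t : Tab A j N m) : ∃ f : Fin N → ℂ, ∀ w, f (t.sw cs h w) = F w := by
  classical
  choose g hg using fun s => t.exists_sw cs h s
  refine ⟨fun s => F (g s), fun w => ?_⟩
  have h1 := t.mem_WJ_of_sw cs h (hg (t.sw cs h w)).symm
  have h2 := hF.left _ h1 w
  rw [inv_mul_cancel_right] at h2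
  exact h2

variable {f : Fin N → ℂ} (hf : ∀ w, f (t.sw cs h w) = F w)

include hF hf in
theorem f_st {i : I} (hi : i ≠ j) (s : Fin N) : f (t.st i s) = f s := by
  obtain ⟨w, rfl⟩ := t.exists_sw cs h s
  rw [← Tab.sw_mul_simple, hf, hf]
  exact hF.right _ (simple_mem_WJ cs hi) w

include hF hf in
theorem f_foldl : ∀ (ω : List I), (∀ i ∈ ω, i ≠ j) → ∀ (s : Fin N), f (ω.foldl (fun b i => t.st i b) s) = f s := by
  intro ω
  induction ω with
  | nil => intro _ s; rfl
  | cons i ω ih =>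
    intro hω s
    rw [List.foldl_cons, ih (fun k hk => hω k (List.mem_cons_of_mem _ hk)), f_st hF hf (hω i List.mem_cons_self)]

include hF hf in
theorem f_o : f t.o = 1 := by
  rw [← Tab.sw_one cs h t, hf, hF.one]

include hF hf in
/-- the kernel of a pair of states -/
theorem kern {y y' : W} {ω : List I} (h1 : ω.foldl (fun b i => t.st i b) (t.sw cs h y) = t.o) :
    F (y' * y⁻¹) = f (ω.foldl (fun b i => t.st i b) (t.sw cs h y')) := by
  rw [← Tab.sw_wordProd, hf]
  rw [← Tab.sw_wordProd] at h1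
  have h2 : y * cs.wordProd ω * (1 : W)⁻¹ ∈ WJ cs {i | i ≠ j} :=
    t.mem_WJ_of_sw cs h (by rw [Tab.sw_one, h1])
  rw [inv_one, mul_one] at h2
  have h3 : y' * cs.wordProd ω = y' * y⁻¹ * (y * cs.wordProd ω) := by group
  rw [h3, hF.right _ h2]

variable {J : Set I} {η : ℤ} {r : Fin N → Fin N} {ε : Fin N → ℤ}

include hF hf in
/-- **The trace formula.** -/
theorem trace [Fintype (WJ cs J)] (O : Orb t J η r ε) (hη : η = 1 ∨ η = -1) {v : Fin N → ℂ}
    (hv : ∀ s, ∃ ω : List I, ω.foldl (fun b i => t.st i b) (r s) = t.o ∧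
      f (ω.foldl (fun b i => t.st i b) s) = v s) :
    N * ∑ u : WJ cs J, (sg cs η (u : W) : ℂ) * φ u = Nat.card (WJ cs J) * (φ 1 * ∑ s, (ε s : ℂ) * v s) := by
  classical
  have hW0 : (Nat.card W : ℂ) ≠ 0 := Nat.cast_ne_zero.2 Nat.card_pos.ne'
  have hP0 : (Nat.card (WJ cs {i | i ≠ j}) : ℂ) ≠ 0 := Nat.cast_ne_zero.2 Nat.card_pos.ne'
  set S : W → ℂ := fun y => ∑ u : WJ cs J, (sg cs η (u : W) : ℂ) * F (y * u * y⁻¹) with hS
  have hSt : ∀ y, ∀ v : WJ cs J, S (y * v) = S y := by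
    intro y v
    refine Fintype.sum_equiv (MulAut.conj v).toEquiv _ _ fun u => ?_
    show (sg cs η (u : W) : ℂ) * F (y * v * u * (y * v)⁻¹) =
      (sg cs η ((v * u * v⁻¹ : WJ cs J) : W) : ℂ) * F (y * ((v * u * v⁻¹ : WJ cs J) : W) * y⁻¹)
    have h1 : sg cs η ((v * u * v⁻¹ : WJ cs J) : W) = sg cs η (u : W) := by
      push_cast
      rw [sg_mul cs hη, sg_mul cs hη, sg_inv cs hη, mul_comm (sg cs η (v : W)), mul_assoc, sg_sq cs hη, mul_one]
    rw [h1]
    congr 2
    push_cast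
    group
  choose vv hvm hv1 hv2 using fun y => O.lift (cs := cs) (h := h) hη y
  -- `S` and the sign of the representative
  have hS1 : ∀ y, (rho t J η (r (t.sw cs h y)) : ℂ) * S y = S y := by
    intro y
    by_cases hη1 : η = 1
    · rw [rho, if_pos (Or.inl hη1)]
      simp
    by_cases h0 : ∃ i ∈ J, t.vec (r (t.sw cs h y)) i = 0
    · have h3 : S y = 0 := by
        obtain ⟨i, hi, h4⟩ := h0
        rw [← hSt y ⟨vv y, hvm y⟩]
        show S (y * vv y) = 0
        have h5 : S (y * vv y) = -S (y * vv y) := by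
          rw [← Finset.sum_neg_distrib]
          refine Fintype.sum_equiv (Equiv.mulRight (⟨cs.simple i, simple_mem_WJ cs hi⟩ : WJ cs J)) _ _ fun u => ?_
          show (sg cs η (u : W) : ℂ) * F (y * vv y * u * (y * vv y)⁻¹) =
            -((sg cs η ((u : W) * cs.simple i) : ℂ) * F (y * vv y * ((u : W) * cs.simple i) * (y * vv y)⁻¹))
          have h6 : η = -1 := hη.resolve_left hη1
          rw [sg_mul cs hη, sg_simple, h6]
          have h7 : t.sw cs h (y * vv y * cs.simple i) = t.sw cs h (y * vv y) := by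
            rw [Tab.sw_mul_simple, hv1, Tab.st_eq_of_zero cs h t h4]
          have h8 := t.mem_WJ_of_sw cs h h7
          have h9 : y * vv y * ((u : W) * cs.simple i) * (y * vv y)⁻¹ =
              y * vv y * (u : W) * (y * vv y)⁻¹ * (y * vv y * (y * vv y * cs.simple i)⁻¹) := by
            rw [mul_inv_rev (y * vv y) (cs.simple i), inv_simple]
            group
          rw [h9, hF.right _ h8]
          push_cast
          ring
        have h6 : (2 : ℂ) * S (y * vv y) = 0 := by linear_combination h5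
        exact (mul_eq_zero.1 h6).resolve_left two_ne_zero
      rw [h3, mul_zero]
    · rw [rho, if_pos (Or.inr fun i hi => lt_of_le_of_ne (O.dom _ i hi) fun h4 => h0 ⟨i, hi, h4.symm⟩)]
      simp
  -- the main double count
  have hmain : (Nat.card (WJ cs J) : ℂ) * ∑ y, (ε (t.sw cs h y) : ℂ) * F (y * (y * vv y)⁻¹) = ∑ y, S y := by
    have h1 : ∀ u : WJ cs J, ∑ y, (ε (t.sw cs h y) : ℂ) * F (y * (y * vv y)⁻¹) =
        ∑ y, (sg cs η (u : W) : ℂ) * ε (t.sw cs h y) * F (y * u * (y * vv y)⁻¹) := by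
      intro u
      refine Fintype.sum_equiv (Equiv.mulRight (u : W)⁻¹) _ _ fun y => ?_
      show (ε (t.sw cs h y) : ℂ) * F (y * (y * vv y)⁻¹) = (sg cs η (u : W) : ℂ) * ε (t.sw cs h (y * (u : W)⁻¹)) *
        F (y * (u : W)⁻¹ * u * (y * (u : W)⁻¹ * vv (y * (u : W)⁻¹))⁻¹)
      rw [O.eps_mul hη y (inv_mem u.2), sg_inv cs hη]
      have h2 : (sg cs η (u : W) : ℂ) * ((sg cs η (u : W) * ε (t.sw cs h y) : ℤ) : ℂ) = ε (t.sw cs h y) := by
        rw [← Int.cast_mul, ← mul_assoc, sg_sq cs hη, one_mul]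
      rw [h2, inv_mul_cancel_right]
      congr 1
      set z := y * (u : W)⁻¹ with hz
      have h3 : t.sw cs h (z * vv z) = t.sw cs h (y * vv y) := by
        rw [hv1, hv1, hz, O.r_eq hη y (inv_mem u.2)]
      have h4 := t.mem_WJ_of_sw cs h h3
      have h5 : y * (y * vv y)⁻¹ = y * (z * vv z)⁻¹ * (y * vv y * (z * vv z)⁻¹)⁻¹ := by group
      rw [h5, hF.right _ (inv_mem h4)]
    have h2 : (Nat.card (WJ cs J) : ℂ) * ∑ y, (ε (t.sw cs h y) : ℂ) * F (y * (y * vv y)⁻¹) =
        ∑ u : WJ cs J, ∑ y, (sg cs η (u : W) : ℂ) * ε (t.sw cs h y) * F (y * u * (y * vv y)⁻¹) := by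
      rw [← Finset.sum_congr rfl fun u _ => h1 u, Finset.sum_const, Finset.card_univ, nsmul_eq_mul,
        Nat.card_eq_fintype_card]
    rw [h2, Finset.sum_comm]
    refine Finset.sum_congr rfl fun y _ => ?_
    rw [← hS1 y, ← hSt y ⟨vv y, hvm y⟩, Finset.mul_sum]
    refine Fintype.sum_equiv (Equiv.mulLeft (⟨vv y, hvm y⟩ : WJ cs J)⁻¹) _ _ fun u => ?_
    show (sg cs η (u : W) : ℂ) * ε (t.sw cs h y) * F (y * u * (y * vv y)⁻¹) = (rho t J η (r (t.sw cs h y)) : ℂ) *
      ((sg cs η ((vv y)⁻¹ * (u : W)) : ℂ) * F (y * vv y * ((vv y)⁻¹ * (u : W)) * (y * vv y)⁻¹))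
    have h3 : y * vv y * ((vv y)⁻¹ * (u : W)) = y * u := by group
    rw [h3, sg_mul cs hη, sg_inv cs hη]
    have h4 : (ε (t.sw cs h y) : ℂ) = sg cs η (vv y) * rho t J η (r (t.sw cs h y)) := by
      have := hv2 y
      exact_mod_cast this
    rw [h4]
    push_cast
    ring
  have hval : ∀ y, F (y * (y * vv y)⁻¹) = v (t.sw cs h y) := by
    intro y
    obtain ⟨ω, h1, h2⟩ := hv (t.sw cs h y)
    rw [← hv1 y] at h1
    rw [kern hF hf h1, h2]
  rw [Finset.sum_congr rfl fun y _ => by rw [hval y]] at hmain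
  have h1 := sum_sw (cs := cs) (h := h) (t := t) (fun s => (ε s : ℂ) * v s)
  rw [h1] at hmain
  have h2 : (Nat.card W : ℂ) * ∑ u : WJ cs J, (sg cs η (u : W) : ℂ) * φ u = φ 1 * ∑ y, S y := by
    have h3 : ∀ u : WJ cs J, (Nat.card W : ℂ) * ((sg cs η (u : W) : ℂ) * φ u) =
        φ 1 * ∑ y, (sg cs η (u : W) : ℂ) * F (y * u * y⁻¹) := by
      intro u
      have h4 := hF.conj (u : W)
      rw [← Finset.mul_sum]
      linear_combination -(sg cs η (u : W) : ℂ) * h4
    rw [Finset.mul_sum, Finset.sum_congr rfl fun u _ => h3 u, ← Finset.mul_sum, Finset.sum_comm]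
  rw [card_eq (cs := cs) h t, ← hmain] at h2
  refine mul_left_cancel₀ hP0 ?_
  linear_combination h2

end Tr

end Cfsg.Agent.H348.LB
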